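import Mathlib

/-!
# Maps of bounded degree between abelian groups
-/

set_option autoImplicit false

namespace CfsgLib.ReeMult

variable {V M M₁ M₂ : Type*} [AddCommGroup V] [AddCommGroup M] [AddCommGroup M₁] [AddCommGroup M₂]

/-- Every iterated difference of order `n + 1` vanishes. -/
def IsDeg : ℕ → (V → M) → Prop
  | 0, f => ∀ u v, f u = f v
  | n + 1, f => ∀ x, IsDeg n fun u => f (u + x) - f u

theorem IsDeg.succ : ∀ {n : ℕ} {f : V → M}, IsDeg n f → IsDeg (n + 1) f
  | 0, _, h => fun x u v => by simp [h (u + x) u, h (v + x) v]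
  | _ + 1, _, h => fun x => (h x).succ

theorem IsDeg.shift : ∀ {n : ℕ} {f : V → M}, IsDeg n f → ∀ x, IsDeg n fun u => f (u + x)
  | 0, _, h, _ => fun _ _ => h _ _
  | n + 1, f, h, x => fun y => by
    have := (h y).shift x
    simpa only [add_right_comm _ x y] using this

theorem IsDeg.add : ∀ {n : ℕ} {f g : V → M}, IsDeg n f → IsDeg n g → IsDeg n fun u => f u + g u
  | 0, _, _, h, h' => fun u v => by simp [h u v, h' u v]
  | _ + 1, f, g, h, h' => fun x => by
    have := (h x).add (h' x)
    simpa only [add_sub_add_comm] using this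

theorem IsDeg.comp : ∀ {n : ℕ} {f : V → M₁} (φ : M₁ →+ M), IsDeg n f → IsDeg n fun u => φ (f u)
  | 0, _, _, h => fun u v => by simp [h u v]
  | _ + 1, f, φ, h => fun x => by simpa only [map_sub] using (h x).comp φ

theorem isDeg_hom (φ : V →+ M) : IsDeg 1 φ := fun x u v => by simp

/-- Degrees add under biadditive maps. -/
theorem IsDeg.bilin : ∀ {p q : ℕ} {f : V → M₁} {g : V → M₂} (B : M₁ →+ M₂ →+ M),
    IsDeg p f → IsDeg q g → IsDeg (p + q) fun u => B (f u) (g u)
  | 0, q, f, g, B, hf, hg => by
    have e : (fun u => B (f u) (g u)) = fun u => B (f 0) (g u) := funext fun u => by rw [hf u 0]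
    rw [e, zero_add]
    exact hg.comp _
  | p + 1, 0, f, g, B, hf, hg => by
    have e : (fun u => B (f u) (g u)) = fun u => B.flip (g 0) (f u) :=
      funext fun u => by rw [hg u 0]; rfl
    rw [e, add_zero]
    exact hf.comp _
  | p + 1, q + 1, f, g, B, hf, hg => fun x => by
    have h1 := IsDeg.bilin B (hf x) (hg.shift x)
    have h2 := IsDeg.bilin B hf (hg x)
    rw [show p + 1 + q = p + (q + 1) by omega] at h2
    have e : (fun u => B (f (u + x)) (g (u + x)) - B (f u) (g u)) =
        fun u => B (f (u + x) - f u) (g (u + x)) + B (f u) (g (u + x) - g u) :=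
      funext fun u => by simp only [map_sub, AddMonoidHom.sub_apply]; abel
    show IsDeg (p + 1 + q) fun u => B (f (u + x)) (g (u + x)) - B (f u) (g u)
    rw [e, show p + 1 + q = p + (q + 1) by omega]
    exact h1.add h2

/-- A map of degree `n` which is constant off a small set is constant. -/
theorem IsDeg.eq_of_off [Fintype V] : ∀ {n : ℕ} {f : V → M}, IsDeg n f → ∀ (c : M) (S : Finset V),
    S.card * 2 ^ n < Fintype.card V → (∀ u, u ∉ S → f u = c) → ∀ u, f u = c := by
  classical
  intro n
  have avoid : ∀ S : Finset V, S.card < Fintype.card V → ∃ a, a ∉ S := fun S hS => by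
    obtain ⟨a, -, ha⟩ := Finset.exists_mem_notMem_of_card_lt_card
      (show S.card < (Finset.univ : Finset V).card by rwa [Finset.card_univ])
    exact ⟨a, ha⟩
  induction n with
  | zero =>
    intro f hf c S hS hc u
    obtain ⟨a, ha⟩ := avoid S (by simpa using hS)
    rw [hf u a, hc a ha]
  | succ n ih =>
    intro f hf c S hS hc u
    obtain ⟨a, ha⟩ := avoid S (lt_of_le_of_lt (Nat.le_mul_of_pos_right _ (by positivity)) hS)
    have hz := ih (hf (a - u)) 0 (S ∪ S.image (· - (a - u))) (by
      refine lt_of_le_of_lt (Nat.mul_le_mul_right _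
        ((Finset.card_union_le _ _).trans (Nat.add_le_add_left Finset.card_image_le _))) ?_
      rw [pow_succ'] at hS
      linarith) (fun w hw => by
      simp only [Finset.mem_union, Finset.mem_image, not_or, not_exists, not_and] at hw
      rw [hc w hw.1, hc (w + (a - u)) (fun h => hw.2 _ h (by abel)), sub_self]) u
    rw [add_sub_cancel, sub_eq_zero] at hz
    rw [← hz, hc a ha]

/-- A map of degree `n` vanishing at `0` and constant elsewhere vanishes. -/
theorem IsDeg.eq_zero [Fintype V] {n : ℕ} {f : V → M} (hf : IsDeg n f) (h0 : f 0 = 0)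
    (hV : 2 ^ n < Fintype.card V) {c : M} (hc : ∀ u, u ≠ 0 → f u = c) : c = 0 := by
  classical
  rw [← h0]
  exact (hf.eq_of_off c {0} (by simpa using hV) (fun u hu => hc u (by simpa using hu)) 0).symm

end CfsgLib.ReeMult
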