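import Cfsg.Agent.Eq.Def_KGroupFacts
import Cfsg.Agent.Schur.StemSylow
import Cfsg.Agent.Schur.CentralCommutator
import Cfsg.Agent.ReeMult.Degree

/-!
# Stem kernels over a group with a unipotent Sylow subgroup of class three

The Sylow `p`-subgroup has three layers parametrised by a field, on which a torus acts by weights of
degrees one, two and three.
-/

set_option autoImplicit false

namespace CfsgLib.ReeMult

open Subgroup
open scoped commutatorElement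

universe u v w

variable {Γ : Type u} [Group Γ] {G : Type v} [Group G] {F : Type w} [Field F] [Fintype F]

/-- Coordinates on a layer of a normal series, with weights. -/
structure Layer (U V : Subgroup G) (T : Fˣ →* G) (χ : F → F) where
  /-- The coordinate representative. -/
  elt : F → G
  /-- It lies in the layer. -/
  mem : ∀ a, elt a ∈ U
  /-- It exhausts the layer. -/
  surj : ∀ x ∈ U, ∃ a, (elt a)⁻¹ * x ∈ V
  /-- It is additive modulo the next term. -/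
  add : ∀ a b, (elt (a + b))⁻¹ * (elt a * elt b) ∈ V
  /-- The torus acts by the weight. -/
  conj : ∀ (t : Fˣ) a, (elt (χ t * a))⁻¹ * (T t * elt a * (T t)⁻¹) ∈ V

variable {U V W X : Subgroup G} {T : Fˣ →* G} {χ χ' : F → F}

/-- An invariant biadditive function on two layers with weights of small degree vanishes. -/
theorem pairing_eq_one {M : Type*} [CommGroup M] (L : Layer U V T χ) (L' : Layer W X T χ')
    {n n' : ℕ} (hn : IsDeg n χ) (hn' : IsDeg n' χ') (h0 : χ 0 = 0) (hF : 2 ^ (n + n') < Fintype.card F)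
    (P : G → G → M) (addL : ∀ x ∈ U, ∀ x' ∈ U, ∀ y ∈ W, P (x * x') y = P x y * P x' y)
    (addR : ∀ x ∈ U, ∀ y ∈ W, ∀ y' ∈ W, P x (y * y') = P x y * P x y')
    (nullL : ∀ x ∈ V, ∀ y ∈ W, P x y = 1) (nullR : ∀ x ∈ U, ∀ y ∈ X, P x y = 1)
    (hVU : V ≤ U) (hXW : X ≤ W)
    (inv : ∀ t : Fˣ, ∀ x ∈ U, ∀ y ∈ W, P (T t * x * (T t)⁻¹) (T t * y * (T t)⁻¹) = P x y) :
    ∀ x ∈ U, ∀ y ∈ W, P x y = 1 := by
  have redL : ∀ x ∈ U, ∀ x', x⁻¹ * x' ∈ V → ∀ y ∈ W, P x' y = P x y := fun x hx x' hxx' y hy => by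
    rw [← mul_inv_cancel_left x x', addL x hx _ (hVU hxx') y hy, nullL _ hxx' y hy, mul_one]
  have redR : ∀ x ∈ U, ∀ y ∈ W, ∀ y', y⁻¹ * y' ∈ X → P x y' = P x y := fun x hx y hy y' hyy' => by
    rw [← mul_inv_cancel_left y y', addR x hx y hy _ (hXW hyy'), nullR x hx _ hyy', mul_one]
  let B : F →+ F →+ Additive M := AddMonoidHom.mk'
    (fun a => AddMonoidHom.mk' (fun b => Additive.ofMul (P (L.elt a) (L'.elt b))) fun b b' => by
      rw [← redR _ (L.mem a) _ (L'.mem _) _ (L'.add b b'), addR _ (L.mem a) _ (L'.mem b) _ (L'.mem b'),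
        ofMul_mul])
    fun a a' => by
      ext b
      simp only [AddMonoidHom.mk'_apply, AddMonoidHom.add_apply]
      rw [← redL _ (L.mem _) _ (L.add a a') _ (L'.mem b), addL _ (L.mem a) _ (L.mem a') _ (L'.mem b),
        ofMul_mul]
  intro x hx y hy
  obtain ⟨a, ha⟩ := L.surj x hx
  obtain ⟨b, hb⟩ := L'.surj y hy
  rw [redL _ (L.mem a) x ha y hy, redR _ (L.mem a) _ (L'.mem b) y hb]
  have hdeg : IsDeg (n + n') fun u => B (χ u * a) (χ' u * b) :=
    IsDeg.bilin B (hn.comp (AddMonoidHom.mulRight a)) (hn'.comp (AddMonoidHom.mulRight b))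
  refine ofMul_eq_zero.1 (hdeg.eq_zero ?_ hF fun u hu => ?_)
  · simp [h0]
  · show Additive.ofMul (P (L.elt (χ u * a)) (L'.elt (χ' u * b))) = _
    refine congrArg _ ?_
    have e := inv (Units.mk0 u hu) _ (L.mem a) _ (L'.mem b)
    have hc := L.conj (Units.mk0 u hu) a
    have hc' := L'.conj (Units.mk0 u hu) b
    have m2 : T (Units.mk0 u hu) * L'.elt b * (T (Units.mk0 u hu))⁻¹ ∈ W := by
      have h := mul_mem (L'.mem (χ' u * b)) (hXW hc')
      rwa [Units.val_mk0, mul_inv_cancel_left] at h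
    rw [redL _ (L.mem _) _ hc _ m2, redR _ (L.mem _) _ (L'.mem _) _ hc', Units.val_mk0] at e
    exact e

/-- No element of order `p` lies in the kernel of a stem extension. -/
theorem not_dvd_card_ker_of_layers [Finite Γ] {σ : Γ →* G} (hσ : Cfsg.IsStemExtension σ) {p : ℕ}
    [Fact p.Prime] (U U₂ U₃ : Subgroup G) (hidx : ¬ p ∣ U.index) (h2 : ⁅U, U⁆ = U₂)
    (h3 : ⁅U, U₂⁆ ≤ U₃) (h4 : ⁅U, U₃⁆ = ⊥) (h32 : U₃ ≤ U₂) (h21 : U₂ ≤ U) (T : Fˣ →* G)
    (hT2 : ∀ t, ∀ x ∈ U₂, T t * x * (T t)⁻¹ ∈ U₂)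
    {χ₂ χ₃ : F → F} (L₁ : Layer U U₂ T id) (L₂ : Layer U₂ U₃ T χ₂) (L₃ : Layer U₃ ⊥ T χ₃)
    (hd₂ : IsDeg 2 χ₂) (hd₃ : IsDeg 3 χ₃) (hF : 16 < Fintype.card F)
    (hp : ¬ p ∣ Nat.card Fˣ) : ¬ p ∣ Nat.card σ.ker := by
  classical
  intro hdvd
  have hd1 : IsDeg 1 (id : F → F) := isDeg_hom (AddMonoidHom.id F)
  have hk : ∀ k ∈ σ.ker, ∀ g, g * k = k * g := fun k hk g => mem_center_iff.1 (hσ.2.1 hk) g
  obtain ⟨s, hs⟩ := hσ.1.hasRightInverse
  let R := U.comap σ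
  let R₂ := U₂.comap σ
  let R₃ := U₃.comap σ
  have hR21 : R₂ ≤ R := comap_mono h21
  have hR32 : R₃ ≤ R₂ := comap_mono h32
  have hKR₃ : σ.ker ≤ R₃ := fun k hk => mem_comap.2 (by rw [MonoidHom.mem_ker.1 hk]; exact one_mem _)
  have hcomm : ∀ (A B C : Subgroup G), ⁅A, B⁆ ≤ C → ⁅A.comap σ, B.comap σ⁆ ≤ C.comap σ := by
    intro A B C h
    rw [commutator_le]
    intro a ha b hb
    rw [mem_comap, map_commutatorElement]
    exact h (commutator_mem_commutator ha hb)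
  have hRR₂ : ⁅R, R₂⁆ ≤ R₃ := hcomm _ _ _ h3
  have hRR₃ : ⁅R, R₃⁆ ≤ σ.ker := hcomm _ _ _ h4.le
  -- `R₂` is generated by commutators and the kernel
  have hgen : R₂ ≤ ⁅R, R⁆ ⊔ σ.ker := by
    intro x hx
    have hmap : ⁅R, R⁆.map σ = U₂ := by
      rw [map_commutator, map_comap_eq_self_of_surjective hσ.1, h2]
    obtain ⟨y, hy, hyx⟩ : σ x ∈ ⁅R, R⁆.map σ := by rw [hmap]; exact mem_comap.1 hx
    rw [← mul_inv_cancel_left y x]
    exact mul_mem_sup hy (by rw [MonoidHom.mem_ker, map_mul, map_inv, hyx, inv_mul_cancel])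
  have hthree : ∀ H : Subgroup Γ, ⁅⁅R, H⁆, R⁆ = ⊥ → ∀ x ∈ R₂, ∀ y ∈ H, x * y = y * x := by
    intro H h1 x hx y hy
    have h2' : ⁅⁅H, R⁆, R⁆ = ⊥ := by rwa [commutator_comm H R]
    have h := commutator_commutator_eq_bot_of_rotate h1 h2'
    have hle : R₂ ≤ centralizer (H : Set Γ) := by
      refine hgen.trans (sup_le ?_ fun k hk' => mem_centralizer_iff.2 fun z _ => hk k hk' z)
      exact commutator_eq_bot_iff_le_centralizer.1 h
    exact (mem_centralizer_iff.1 (hle hx) y hy).symm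
  -- `R₂` commutes with `R₃`
  have c23 : ∀ x ∈ R₂, ∀ y ∈ R₃, x * y = y * x := hthree R₃ (by
    rw [commutator_eq_bot_iff_le_centralizer]
    exact fun k hk' => mem_centralizer_iff.2 fun z _ => hk k (hRR₃ hk') z)
  -- `R₃` is central in `R`
  letI : CommGroup σ.ker := { (inferInstance : Group σ.ker) with
    mul_comm := fun a b => Subtype.ext (hk _ b.2 a) }
  have hsU : ∀ {A : Subgroup G} {x}, x ∈ A → s x ∈ A.comap σ := fun {A x} hx => by
    rw [mem_comap, hs]; exact hx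
  have c13 : ∀ x ∈ R, ∀ y ∈ R₃, x * y = y * x := by
    let Pf : G → G → σ.ker := fun x y => if h : ⁅s x, s y⁆ ∈ σ.ker then ⟨_, h⟩ else 1
    have hP : ∀ x ∈ U, ∀ y ∈ U₃, ∀ g h, σ g = x → σ h = y → (Pf x y : Γ) = ⁅g, h⁆ :=
      fun x hx y hy g h hg hh => by
        simp only [Pf, dif_pos (hRR₃ (commutator_mem_commutator (hsU hx) (hsU hy)))]
        exact CfsgLib.Schur.commutator_congr hσ.2.1 (by rw [hs, hg]) (by rw [hs, hh])
    have hT3 : ∀ t, ∀ y ∈ U₃, T t * y * (T t)⁻¹ ∈ U₃ := fun t y hy => by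
      obtain ⟨b, hb⟩ := L₃.surj y hy
      rw [← inv_mul_eq_one.1 (mem_bot.1 hb), ← inv_mul_eq_one.1 (mem_bot.1 (L₃.conj t b))]
      exact L₃.mem _
    have hT1 : ∀ t, ∀ x ∈ U, T t * x * (T t)⁻¹ ∈ U := fun t x hx => by
      obtain ⟨a, ha⟩ := L₁.surj x hx
      rw [show T t * x * (T t)⁻¹ = (L₁.elt (id (t : F) * a) * ((L₁.elt (id (t : F) * a))⁻¹ *
        (T t * L₁.elt a * (T t)⁻¹))) * (T t * ((L₁.elt a)⁻¹ * x) * (T t)⁻¹) by group]
      exact mul_mem (mul_mem (L₁.mem _) (h21 (L₁.conj t a))) (h21 (hT2 t _ ha))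
    have hone := pairing_eq_one L₁ L₃ hd1 hd₃ rfl (by simpa using hF) Pf
      (fun x hx x' hx' y hy => Subtype.ext (by
        rw [Subgroup.coe_mul, hP _ (mul_mem hx hx') y hy (s x * s x') (s y) (by rw [map_mul, hs, hs]) (hs _),
          hP x hx y hy _ _ (hs _) (hs _), hP x' hx' y hy _ _ (hs _) (hs _)]
        have hm : ⁅s x', s y⁆ ∈ σ.ker := hRR₃ (commutator_mem_commutator (hsU hx') (hsU hy))
        rw [CfsgLib.Schur.commutator_mul_left' (hk _ hm _),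
          hk _ (hRR₃ (commutator_mem_commutator (hsU hx) (hsU hy))) _]))
      (fun x hx y hy y' hy' => Subtype.ext (by
        rw [Subgroup.coe_mul, hP x hx _ (mul_mem hy hy') (s x) (s y * s y') (hs _) (by rw [map_mul, hs, hs]),
          hP x hx y hy _ _ (hs _) (hs _), hP x hx y' hy' _ _ (hs _) (hs _)]
        have hm : ⁅s x, s y'⁆ ∈ σ.ker := hRR₃ (commutator_mem_commutator (hsU hx) (hsU hy'))
        rw [CfsgLib.Schur.commutator_mul_right' (hk _ hm _)]))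
      (fun x hx y hy => Subtype.ext (by
        rw [hP x (h21 hx) y hy _ _ (hs _) (hs _)]
        exact commutatorElement_eq_one_iff_mul_comm.2 (c23 _ (hsU hx) _ (hsU hy))))
      (fun x hx y hy => Subtype.ext (by
        rw [mem_bot] at hy
        subst hy
        rw [hP x hx 1 (one_mem _) (s x) 1 (hs _) (map_one σ), commutatorElement_one_right]
        rfl))
      h21 bot_le
      (fun t x hx y hy => Subtype.ext (by
        rw [hP _ (hT1 t x hx) _ (hT3 t y hy) (s (T t) * s x * (s (T t))⁻¹)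
            (s (T t) * s y * (s (T t))⁻¹) (by rw [map_mul, map_mul, map_inv, hs, hs])
            (by rw [map_mul, map_mul, map_inv, hs, hs]),
          hP x hx y hy _ _ (hs _) (hs _)]
        rw [show ⁅s (T t) * s x * (s (T t))⁻¹, s (T t) * s y * (s (T t))⁻¹⁆ =
          s (T t) * ⁅s x, s y⁆ * (s (T t))⁻¹ by simp only [commutatorElement_def]; group,
          hk _ (hRR₃ (commutator_mem_commutator (hsU hx) (hsU hy))), mul_inv_cancel_right]))
    intro x hx y hy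
    refine commutatorElement_eq_one_iff_mul_comm.1 ?_
    rw [← hP (σ x) hx (σ y) hy x y rfl rfl, hone _ hx _ hy]
    rfl
  -- `R₂` is abelian
  have c22 : ∀ x ∈ R₂, ∀ y ∈ R₂, x * y = y * x := hthree R₂ (by
    rw [commutator_eq_bot_iff_le_centralizer]
    exact fun k hk' => mem_centralizer_iff.2 fun z hz => c13 z hz k (hRR₂ hk'))
  letI : CommGroup R₂ := { (inferInstance : Group R₂) with
    mul_comm := fun a b => Subtype.ext (c22 _ a.2 _ b.2) }
  -- averaging over the torus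
  have hnorm : ∀ t (x : R₂), s (T t) * x * (s (T t))⁻¹ ∈ R₂ := fun t x => by
    rw [mem_comap, map_mul, map_mul, map_inv, hs]
    exact hT2 t _ x.2
  let c : Fˣ → (R₂ →* R₂) := fun t => MonoidHom.mk' (fun x => ⟨_, hnorm t x⟩) fun x y =>
    Subtype.ext (by simp only [Subgroup.coe_mul]; group)
  let ψ : R₂ →* R₂ := ∏ t, c t
  have hψinv : ∀ t₀ x, ψ (c t₀ x) = ψ x := by
    intro t₀ x
    simp only [ψ, MonoidHom.finsetProd_apply]
    refine Fintype.prod_equiv (Equiv.mulRight t₀) _ _ fun t => Subtype.ext ?_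
    simp only [c, MonoidHom.mk'_apply, Equiv.coe_mulRight]
    obtain ⟨k, hk1, hk2⟩ : ∃ k ∈ σ.ker, s (T t) * s (T t₀) = s (T (t * t₀)) * k :=
      ⟨(s (T (t * t₀)))⁻¹ * (s (T t) * s (T t₀)), by
        simp only [MonoidHom.mem_ker, map_mul, map_inv, hs _, inv_mul_cancel],
        by group⟩
    calc s (T t) * (s (T t₀) * x * (s (T t₀))⁻¹) * (s (T t))⁻¹
        = (s (T t) * s (T t₀)) * x * (s (T t) * s (T t₀))⁻¹ := by group
      _ = s (T (t * t₀)) * (k * (x : Γ)) * k⁻¹ * (s (T (t * t₀)))⁻¹ := by rw [hk2]; group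
      _ = _ := by rw [← hk k hk1 (x : Γ)]; group
  -- the averaged commutator
  have hRR : ∀ x ∈ R, ∀ y ∈ R, ⁅x, y⁆ ∈ R₂ := fun x hx y hy =>
    hcomm _ _ _ h2.le (commutator_mem_commutator hx hy)
  let Φ : Γ → Γ → R₂ := fun g h => if hm : ⁅g, h⁆ ∈ R₂ then ψ ⟨_, hm⟩ else 1
  have hΦ : ∀ g h (hm : ⁅g, h⁆ ∈ R₂), Φ g h = ψ ⟨_, hm⟩ := fun g h hm => dif_pos hm
  have hΦeq : ∀ g h g' h', σ g = σ g' → σ h = σ h' → Φ g h = Φ g' h' := fun g h g' h' e e' => by
    simp only [Φ, CfsgLib.Schur.commutator_congr hσ.2.1 e e']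
  have hΦinv : ∀ t, ∀ g ∈ R, ∀ h ∈ R,
      Φ (s (T t) * g * (s (T t))⁻¹) (s (T t) * h * (s (T t))⁻¹) = Φ g h := fun t g hg h hh => by
    have e : ⁅s (T t) * g * (s (T t))⁻¹, s (T t) * h * (s (T t))⁻¹⁆
        = s (T t) * ⁅g, h⁆ * (s (T t))⁻¹ := by simp only [commutatorElement_def]; group
    rw [hΦ g h (hRR g hg h hh), ← hψinv t,
      hΦ _ _ (by rw [e]; exact hnorm t ⟨_, hRR g hg h hh⟩)]
    exact congrArg ψ (Subtype.ext e)
  have hmid : ∀ g ∈ R, ∀ h ∈ R₂, Φ g h = 1 := by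
    have hm : ∀ g ∈ R, ∀ h ∈ R₂, ⁅g, h⁆ ∈ R₂ := fun g hg h hh => hRR g hg h (hR21 hh)
    have cc : ∀ g ∈ R, ∀ h ∈ R₂, ∀ r ∈ R, r * ⁅g, h⁆ = ⁅g, h⁆ * r := fun g hg h hh r hr =>
      c13 r hr _ (hRR₂ (commutator_mem_commutator hg hh))
    have hone := pairing_eq_one L₁ L₂ hd1 hd₂ rfl
      (lt_of_le_of_lt (Nat.pow_le_pow_right (by norm_num) (by norm_num : 1 + 2 ≤ 4)) (by simpa using hF))
      (fun x y => Φ (s x) (s y))
      (fun x hx x' hx' y hy => by
        rw [hΦeq (s (x * x')) (s y) (s x * s x') (s y) (by rw [map_mul, hs, hs, hs]) rfl,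
          hΦ _ _ (hm _ (mul_mem (hsU hx) (hsU hx')) _ (hsU hy)), hΦ _ _ (hm _ (hsU hx) _ (hsU hy)),
          hΦ _ _ (hm _ (hsU hx') _ (hsU hy)), ← map_mul]
        refine congrArg ψ (Subtype.ext ?_)
        show ⁅s x * s x', s y⁆ = ⁅s x, s y⁆ * ⁅s x', s y⁆
        rw [CfsgLib.Schur.commutator_mul_left' (cc _ (hsU hx') _ (hsU hy) _ (hsU hx)),
          c22 _ (hm _ (hsU hx') _ (hsU hy)) _ (hm _ (hsU hx) _ (hsU hy))])
      (fun x hx y hy y' hy' => by
        rw [hΦeq (s x) (s (y * y')) (s x) (s y * s y') rfl (by rw [map_mul, hs, hs, hs]),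
          hΦ _ _ (hm _ (hsU hx) _ (mul_mem (hsU hy) (hsU hy'))), hΦ _ _ (hm _ (hsU hx) _ (hsU hy)),
          hΦ _ _ (hm _ (hsU hx) _ (hsU hy')), ← map_mul]
        refine congrArg ψ (Subtype.ext ?_)
        show ⁅s x, s y * s y'⁆ = ⁅s x, s y⁆ * ⁅s x, s y'⁆
        rw [CfsgLib.Schur.commutator_mul_right' (cc _ (hsU hx) _ (hsU hy') _ (hR21 (hsU hy)))])
      (fun x hx y hy => by
        rw [hΦ _ _ (hm _ (hsU (h21 hx)) _ (hsU hy)),
          show (⟨⁅s x, s y⁆, _⟩ : R₂) = 1 from Subtype.ext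
            (commutatorElement_eq_one_iff_mul_comm.2 (c22 _ (hsU hx) _ (hsU hy))), map_one])
      (fun x hx y hy => by
        rw [hΦ _ _ (hm _ (hsU hx) _ (hsU (h32 hy))),
          show (⟨⁅s x, s y⁆, _⟩ : R₂) = 1 from Subtype.ext
            (commutatorElement_eq_one_iff_mul_comm.2 (c13 _ (hsU hx) _ (hsU hy))), map_one])
      h21 h32
      (fun t x hx y hy => by
        rw [hΦeq (s (T t * x * (T t)⁻¹)) (s (T t * y * (T t)⁻¹)) (s (T t) * s x * (s (T t))⁻¹)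
          (s (T t) * s y * (s (T t))⁻¹) (by simp only [map_mul, map_inv, hs _])
          (by simp only [map_mul, map_inv, hs _]), hΦinv t _ (hsU hx) _ (hsU (h21 hy))])
    intro g hg h hh
    rw [hΦeq g h (s (σ g)) (s (σ h)) (hs _).symm (hs _).symm]
    exact hone _ hg _ hh
  have htop : ∀ g ∈ R, ∀ h ∈ R, Φ g h = 1 := by
    have key : ∀ g ∈ R, ∀ g' ∈ R, ∀ h ∈ R, Φ (g * g') h = Φ g h * Φ g' h := fun g hg g' hg' h hh => by
      have e : ⁅g * g', h⁆ = ⁅g, ⁅g', h⁆⁆ * ⁅g', h⁆ * ⁅g, h⁆ := by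
        simp only [commutatorElement_def]; group
      rw [hΦ _ _ (hRR _ (mul_mem hg hg') h hh), show (⟨⁅g * g', h⁆, _⟩ : R₂) =
        ⟨_, hRR g hg _ (hR21 (hRR g' hg' h hh))⟩ * ⟨_, hRR g' hg' h hh⟩ * ⟨_, hRR g hg h hh⟩
          from Subtype.ext e, map_mul, map_mul, ← hΦ, ← hΦ, ← hΦ,
        hmid g hg _ (hRR g' hg' h hh), one_mul, mul_comm]
    have hsymm : ∀ g ∈ R, ∀ h ∈ R, Φ g h = (Φ h g)⁻¹ := fun g hg h hh => by
      rw [hΦ _ _ (hRR g hg h hh), hΦ _ _ (hRR h hh g hg), ← map_inv]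
      exact congrArg ψ (Subtype.ext (commutatorElement_inv h g).symm)
    have hone := pairing_eq_one L₁ L₁ hd1 hd1 rfl
      (lt_of_le_of_lt (Nat.pow_le_pow_right (by norm_num) (by norm_num : 1 + 1 ≤ 4)) (by simpa using hF))
      (fun x y => Φ (s x) (s y))
      (fun x hx x' hx' y hy => by
        rw [hΦeq (s (x * x')) (s y) (s x * s x') (s y) (by rw [map_mul, hs, hs, hs]) rfl,
          key _ (hsU hx) _ (hsU hx') _ (hsU hy)])
      (fun x hx y hy y' hy' => by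
        rw [hΦeq (s x) (s (y * y')) (s x) (s y * s y') rfl (by rw [map_mul, hs, hs, hs]),
          hsymm _ (hsU hx) _ (mul_mem (hsU hy) (hsU hy')), key _ (hsU hy) _ (hsU hy') _ (hsU hx),
          mul_inv, ← hsymm _ (hsU hx) _ (hsU hy), ← hsymm _ (hsU hx) _ (hsU hy')])
      (fun x hx y hy => by
        rw [hsymm _ (hsU (h21 hx)) _ (hsU hy), hmid _ (hsU hy) _ (hsU hx), inv_one])
      (fun x hx y hy => hmid _ (hsU hx) _ (hsU hy))
      h21 h21
      (fun t x hx y hy => by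
        rw [hΦeq (s (T t * x * (T t)⁻¹)) (s (T t * y * (T t)⁻¹)) (s (T t) * s x * (s (T t))⁻¹)
          (s (T t) * s y * (s (T t))⁻¹) (by simp only [map_mul, map_inv, hs _])
          (by simp only [map_mul, map_inv, hs _]), hΦinv t _ (hsU hx) _ (hsU hy)])
    intro g hg h hh
    rw [hΦeq g h (s (σ g)) (s (σ h)) (hs _).symm (hs _).symm]
    exact hone _ hg _ hh
  -- conclusion
  obtain ⟨z₀, hz₀⟩ := exists_prime_orderOf_dvd_card' p hdvd
  have hzo : orderOf (z₀ : Γ) = p := by rw [orderOf_coe]; exact hz₀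
  have hz : (z₀ : Γ) ∈ ⁅R, R⁆ := CfsgLib.Schur.mem_commutator_comap hσ U z₀.2 (by
    rw [hzo]; exact (Fact.out : p.Prime).coprime_iff_not_dvd.2 hidx)
  have hle : ⁅R, R⁆ ≤ ψ.ker.map R₂.subtype := by
    rw [commutator_le]
    intro g hg h hh
    exact ⟨⟨_, hRR g hg h hh⟩, by rw [SetLike.mem_coe, MonoidHom.mem_ker, ← hΦ]; exact htop g hg h hh, rfl⟩
  obtain ⟨x, hx, hxz⟩ := hle hz
  have hψker : ψ x = x ^ Fintype.card Fˣ := by
    simp only [ψ, MonoidHom.finsetProd_apply]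
    rw [Finset.prod_congr rfl (fun t _ => show c t x = x from Subtype.ext (by
      show s (T t) * (x : Γ) * (s (T t))⁻¹ = x
      rw [show (x : Γ) = z₀ from hxz, hk _ z₀.2, mul_inv_cancel_right])), Finset.prod_const,
      Finset.card_univ]
  have hpow : x ^ Fintype.card Fˣ = 1 := hψker ▸ hx
  refine hp ?_
  rw [← hzo, Nat.card_eq_fintype_card]
  refine orderOf_dvd_of_pow_eq_one ?_
  rw [← show (x : Γ) = z₀ from hxz, ← SubmonoidClass.coe_pow, hpow]
  rfl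

end CfsgLib.ReeMult
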