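import Cfsg.Agent.Eq.Def_KGroupFacts
import Cfsg.Agent.Schur.StemSylow
import Cfsg.Agent.Schur.CentralCommutator

/-!
# The 2-part of a stem kernel over an elementary Sylow subgroup of order eight with normaliser 168
-/

set_option autoImplicit false

namespace CfsgLib.ReeMult

open Subgroup
open scoped commutatorElement

universe u v

variable {G : Type v} [Group G]

/-- The fixed points in `E` of an element of order `p` normalising it. -/
theorem card_fix_modEq [Finite G] (E : Subgroup G) {p : ℕ} [Fact p.Prime] {g : G}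
    (hg : g ∈ normalizer (E : Set G)) (hgp : g ^ p = 1) :
    Nat.card ↥(E ⊓ centralizer {g}) ≡ Nat.card E [MOD p] := by
  classical
  haveI := Fintype.ofFinite E
  let f : E → E := fun x => ⟨g * x * g⁻¹, (mem_normalizer_iff.1 hg x).1 x.2⟩
  have hinj : Function.Injective f := fun a b h => Subtype.ext (by
    have := Subtype.ext_iff.1 h
    exact mul_left_cancel (mul_right_cancel this))
  let e : Equiv.Perm E := Equiv.ofBijective f (Finite.injective_iff_bijective.1 hinj)
  have hpow : ∀ n, ∀ x : E, ((e ^ n) x : G) = g ^ n * x * (g ^ n)⁻¹ := by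
    intro n
    induction n with
    | zero => simp
    | succ n ih =>
      intro x
      rw [pow_succ, Equiv.Perm.mul_apply, ih]
      show g ^ n * (g * x * g⁻¹) * (g ^ n)⁻¹ = _
      rw [pow_succ]; group
  have he : e ^ p ^ 1 = 1 := Equiv.ext fun x => Subtype.ext (by rw [pow_one, hpow, hgp]; simp)
  have h := Equiv.Perm.card_compl_support_modEq (n := 1) he
  have hfix : e.supportᶜ.card = Nat.card ↥(E ⊓ centralizer {g}) := by
    have hset : ∀ x : E, x ∈ e.supportᶜ ↔ (x : G) ∈ E ⊓ centralizer {g} := fun x => by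
      rw [Finset.mem_compl, Equiv.Perm.notMem_support, mem_inf, mem_centralizer_singleton_iff,
        Subtype.ext_iff]
      exact ⟨fun h => ⟨x.2, mul_inv_eq_iff_eq_mul.1 h |>.symm⟩,
        fun h => mul_inv_eq_iff_eq_mul.2 h.2.symm⟩
    rw [← Fintype.card_coe, ← Nat.card_eq_fintype_card]
    exact Nat.card_congr
      { toFun := fun x => ⟨(x.1 : G), (hset x.1).1 x.2⟩
        invFun := fun x => ⟨⟨x.1, (mem_inf.1 x.2).1⟩, (hset _).2 x.2⟩
        left_inv := fun x => rfl
        right_inv := fun x => rfl }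
  rw [hfix, ← Nat.card_eq_fintype_card] at h
  exact h

/-- An elementary Sylow subgroup of order eight with normaliser of order 168. -/
theorem not_two_dvd_card_ker {Γ : Type u} [Group Γ] [Finite Γ] [Finite G] {σ : Γ →* G}
    (hσ : Cfsg.IsStemExtension σ) (E : Subgroup G) (hidx : ¬ 2 ∣ E.index) (h8 : Nat.card E = 8)
    (h2 : ∀ x ∈ E, x * x = 1) (hC : centralizer (E : Set G) = E)
    (hN : Nat.card ↥(normalizer (E : Set G)) = 168) : ¬ 2 ∣ Nat.card σ.ker := by
  classical
  haveI : Fact (Nat.Prime 2) := ⟨Nat.prime_two⟩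
  haveI : Fact (Nat.Prime 3) := ⟨Nat.prime_three⟩
  haveI : Fact (Nat.Prime 7) := ⟨by norm_num⟩
  set N := normalizer (E : Set G)
  obtain ⟨g₀, hg₀⟩ := exists_prime_orderOf_dvd_card' 3 (show 3 ∣ Nat.card N by rw [hN]; norm_num)
  obtain ⟨h₀, hh₀⟩ := exists_prime_orderOf_dvd_card' 7 (show 7 ∣ Nat.card N by rw [hN]; norm_num)
  have hcomm : ∀ x ∈ E, ∀ y ∈ E, x * y = y * x := fun x hx y hy =>
    (mem_centralizer_iff.1 (show x ∈ centralizer (E : Set G) by rw [hC]; exact hx) y hy).symm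
  -- fixed points of elements of order 3 and 7
  have hfix : ∀ (p : ℕ) [Fact p.Prime] (g : N), orderOf g = p → p ≠ 2 →
      Nat.card ↥(E ⊓ centralizer {(g : G)}) ∈ ({1, 2, 4} : Finset ℕ) ∧
        Nat.card ↥(E ⊓ centralizer {(g : G)}) % p = 8 % p := by
    intro p _ g hg hp2
    have hgp : (g : G) ^ p = 1 := by rw [← SubmonoidClass.coe_pow, ← hg, pow_orderOf_eq_one]; rfl
    refine ⟨?_, by have := card_fix_modEq E g.2 hgp; rwa [h8] at this⟩
    obtain ⟨k, hk, hcard⟩ := (Nat.dvd_prime_pow Nat.prime_two).1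
      (show Nat.card ↥(E ⊓ centralizer {(g : G)}) ∣ 2 ^ 3 from by
        have := Subgroup.card_dvd_of_le (inf_le_left : E ⊓ centralizer {(g : G)} ≤ E)
        rwa [h8] at this)
    have hk3 : k ≠ 3 := by
      rintro rfl
      have hle : E ⊓ centralizer {(g : G)} = E := eq_of_le_of_card_ge inf_le_left (by
        rw [hcard, h8]; norm_num)
      have hmem : (g : G) ∈ E := by
        rw [← hC, mem_centralizer_iff]
        intro x hx
        rw [← hle] at hx
        exact mem_centralizer_singleton_iff.1 (mem_inf.1 hx).2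
      have ho : orderOf (g : G) ∣ 2 := orderOf_dvd_of_pow_eq_one (by rw [pow_two]; exact h2 _ hmem)
      rw [orderOf_coe, hg] at ho
      exact hp2 ((Nat.prime_dvd_prime_iff_eq Fact.out Nat.prime_two).1 ho)
    rw [hcard]
    interval_cases k <;> simp_all
  obtain ⟨hg1, hg2⟩ := hfix 3 g₀ hg₀ (by norm_num)
  obtain ⟨hh1, hh2⟩ := hfix 7 h₀ hh₀ (by norm_num)
  have hF : Nat.card ↥(E ⊓ centralizer {(g₀ : G)}) = 2 := by
    simp only [Finset.mem_insert, Finset.mem_singleton] at hg1; omega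
  have hH : E ⊓ centralizer {(h₀ : G)} = ⊥ := Subgroup.card_eq_one.1 (by
    simp only [Finset.mem_insert, Finset.mem_singleton] at hh1; omega)
  obtain ⟨x₀, hne, huniv⟩ := Nat.card_eq_two_iff' (1 : ↥(E ⊓ centralizer {(g₀ : G)})) |>.1 hF
  -- every point is the fixed point of some element of order three
  have hstar : ∀ x ∈ E, x ≠ 1 → ∃ g : G, g ∈ N ∧ g ^ 3 = 1 ∧
      ∀ y ∈ E, g * y = y * g ↔ (y = 1 ∨ y = x) := by
    have horb : ∀ x ∈ E, x ≠ 1 → ∃ i : Fin 7, (h₀ : G) ^ (i : ℕ) * x₀ * ((h₀ : G) ^ (i : ℕ))⁻¹ = x := by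
      let f : Fin 7 → {x : E // x ≠ 1} := fun i => ⟨⟨(h₀ : G) ^ (i : ℕ) * x₀ * ((h₀ : G) ^ (i : ℕ))⁻¹,
        (mem_normalizer_iff.1 (pow_mem h₀.2 _) _).1 (mem_inf.1 x₀.2).1⟩, fun h => hne (Subtype.ext (by
          have := congrArg Subtype.val h
          simpa using this))⟩
      have hf : Function.Injective f := by
        suffices h : ∀ i j : Fin 7, i ≤ j → f i = f j → i = j by
          intro i j e
          rcases le_total i j with hij | hij
          · exact h i j hij e
          · exact (h j i hij e.symm).symm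
        intro i j hij e
        by_contra hne'
        have e' := congrArg (fun z : {x : E // x ≠ 1} => ((z.1 : E) : G)) e
        simp only [f] at e'
        set d := (j : ℕ) - (i : ℕ) with hd
        have hd0 : 0 < d ∧ d < 7 := by
          have : (i : ℕ) < j := lt_of_le_of_ne hij (fun h => hne' (Fin.ext h))
          omega
        have hc : (h₀ : G) ^ d * x₀ = x₀ * (h₀ : G) ^ d := by
          rw [show (j : ℕ) = i + d by omega, pow_add] at e'
          simp only [mul_assoc, mul_inv_rev, mul_left_cancel_iff] at e'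
          rw [← mul_assoc, ← mul_assoc, mul_left_inj] at e'
          conv_rhs => rw [e']
          group
        have hgen : (h₀ : G) ∈ centralizer {((x₀ : ↥(E ⊓ centralizer {(g₀ : G)})) : G)} := by
          obtain ⟨u, hu⟩ := Nat.exists_mul_mod_eq_one_of_coprime
            (show Nat.Coprime d 7 from ((Nat.Prime.coprime_iff_not_dvd (by norm_num)).2
              (Nat.not_dvd_of_pos_of_lt hd0.1 hd0.2)).symm) (by norm_num)
          have h1 : (h₀ : G) = ((h₀ : G) ^ d) ^ u := by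
            have ho : orderOf (h₀ : G) = 7 := by rw [orderOf_coe, hh₀]
            rw [← pow_mul, ← pow_mod_orderOf, ho, hu.2, pow_one]
          rw [h1]
          exact pow_mem (mem_centralizer_singleton_iff.2 hc) _
        have : (x₀ : G) ∈ E ⊓ centralizer {(h₀ : G)} := mem_inf.2 ⟨(mem_inf.1 x₀.2).1,
          mem_centralizer_singleton_iff.2 (mem_centralizer_singleton_iff.1 hgen).symm⟩
        rw [hH, mem_bot] at this
        exact hne (Subtype.ext this)
      haveI := Fintype.ofFinite E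
      have hb : Function.Bijective f := (Fintype.bijective_iff_injective_and_card f).2 ⟨hf, by
        rw [Fintype.card_fin, Fintype.card_subtype_compl, Fintype.card_subtype_eq,
          ← Nat.card_eq_fintype_card, h8]⟩
      intro x hx hx1
      obtain ⟨i, hi⟩ := hb.2 ⟨⟨x, hx⟩, fun h => hx1 (congrArg Subtype.val h)⟩
      exact ⟨i, congrArg (fun z : {x : E // x ≠ 1} => ((z.1 : E) : G)) hi⟩
    intro x hx hx1
    obtain ⟨i, rfl⟩ := horb x hx hx1
    set c := (h₀ : G) ^ (i : ℕ)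
    have hc : c ∈ N := pow_mem h₀.2 _
    refine ⟨c * g₀ * c⁻¹, mul_mem (mul_mem hc g₀.2) (inv_mem hc), ?_, fun y hy => ?_⟩
    · rw [conj_pow, ← SubmonoidClass.coe_pow, ← hg₀, pow_orderOf_eq_one]; simp
    have hy' : c⁻¹ * y * c ∈ E := by
      simpa using (mem_normalizer_iff.1 (inv_mem hc) y).1 hy
    constructor
    · intro h
      have hm : c⁻¹ * y * c ∈ E ⊓ centralizer {(g₀ : G)} := mem_inf.2 ⟨hy', by
        rw [mem_centralizer_singleton_iff]
        calc c⁻¹ * y * c * g₀ = c⁻¹ * (y * (c * g₀ * c⁻¹)) * c := by group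
          _ = c⁻¹ * (c * g₀ * c⁻¹ * y) * c := by rw [h]
          _ = _ := by group⟩
      by_cases h1 : c⁻¹ * y * c = 1
      · exact Or.inl (by simpa [mul_assoc, inv_mul_eq_one] using congrArg (fun z => c * z * c⁻¹) h1)
      · refine Or.inr ?_
        rw [← congrArg Subtype.val (huniv ⟨_, hm⟩ fun h => h1 (congrArg Subtype.val h))]
        group
    · rintro (rfl | rfl)
      · simp
      · have := mem_centralizer_singleton_iff.1 (mem_inf.1 x₀.2).2
        calc c * g₀ * c⁻¹ * (c * x₀ * c⁻¹) = c * ((g₀ : G) * x₀) * c⁻¹ := by group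
          _ = c * ((x₀ : G) * g₀) * c⁻¹ := by rw [this]
          _ = _ := by group
  refine CfsgLib.Schur.not_dvd_card_ker hσ E hidx fun z _ hz => ?_
  suffices h : ⁅E.comap σ, E.comap σ⁆ = ⊥ by rwa [h, mem_bot] at hz
  refine CfsgLib.Schur.commutator_eq_bot_of_commute fun x hx y hy => ?_
  rw [mem_comap] at hx hy
  have hk : ∀ k ∈ σ.ker, ∀ g, g * k = k * g := fun k hk g => mem_center_iff.1 (hσ.2.1 hk) g
  have hK : ∀ a b, σ a ∈ E → σ b ∈ E → ⁅a, b⁆ ∈ σ.ker := fun a b ha hb => by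
    rw [MonoidHom.mem_ker, map_commutatorElement]
    exact commutatorElement_eq_one_iff_mul_comm.2 (hcomm _ ha _ hb)
  have hsq : ∀ a b, σ a ∈ E → σ b ∈ E → ⁅a, b⁆ * ⁅a, b⁆ = 1 := fun a b ha hb => by
    have h1 : ⁅a * a, b⁆ = ⁅a, b⁆ * ⁅a, b⁆ := CfsgLib.Schur.commutator_mul_left' (hk _ (hK a b ha hb) _)
    rw [← h1, CfsgLib.Schur.commutator_congr hσ.2.1 (g' := 1) (h' := b)
      (by rw [map_mul, map_one]; exact h2 _ ha) rfl, commutatorElement_one_left]
  refine commutatorElement_eq_one_iff_mul_comm.1 ?_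
  by_cases hx1 : σ x = 1
  · rw [CfsgLib.Schur.commutator_congr hσ.2.1 (g' := 1) (h' := y) (by rw [map_one]; exact hx1) rfl,
      commutatorElement_one_left]
  obtain ⟨g, hg, hg3, hgfix⟩ := hstar _ hx hx1
  obtain ⟨g', rfl⟩ := hσ.1 g
  have hgx : σ g' * σ x = σ x * σ g' := (hgfix _ hx).2 (Or.inr rfl)
  have hinv : ∀ b, σ b ∈ E → ⁅x, g' * b * g'⁻¹⁆ = ⁅x, b⁆ := fun b hb => by
    rw [CfsgLib.Schur.commutator_congr hσ.2.1 (g := x) (g' := g' * x * g'⁻¹) (h := g' * b * g'⁻¹)
      (h' := g' * b * g'⁻¹) (by rw [map_mul, map_mul, map_inv, hgx, mul_inv_cancel_right]) rfl,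
      show ⁅g' * x * g'⁻¹, g' * b * g'⁻¹⁆ = g' * ⁅x, b⁆ * g'⁻¹ by
        simp only [commutatorElement_def]; group,
      hk _ (hK x b hx hb), mul_inv_cancel_right]
  set y₁ := g' * y * g'⁻¹
  set y₂ := g' * y₁ * g'⁻¹
  have hy1 : σ y₁ ∈ E := by
    simp only [y₁, map_mul, map_inv]; exact (mem_normalizer_iff.1 hg _).1 hy
  have hy2 : σ y₂ ∈ E := by
    show σ (g' * y₁ * g'⁻¹) ∈ E
    rw [map_mul, map_mul, map_inv]; exact (mem_normalizer_iff.1 hg _).1 hy1
  have hprod : ⁅x, y * (y₁ * y₂)⁆ = ⁅x, y⁆ := by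
    rw [CfsgLib.Schur.commutator_mul_right' (hk _ (hK x _ hx (by rw [map_mul]; exact mul_mem hy1 hy2)) _),
      CfsgLib.Schur.commutator_mul_right' (hk _ (hK x y₂ hx hy2) _),
      hinv y₁ hy1, hinv y hy, hsq x y hx hy, mul_one]
  rw [← hprod]
  have hmem : σ (y * (y₁ * y₂)) ∈ E := by
    rw [map_mul, map_mul]; exact mul_mem hy (mul_mem hy1 hy2)
  have hconj : σ g' * σ (y * (y₁ * y₂)) * (σ g')⁻¹ = σ (y * (y₁ * y₂)) := by
    have e3 : σ g' * σ y₂ * (σ g')⁻¹ = σ y := by
      simp only [y₂, y₁, map_mul, map_inv]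
      calc _ = σ g' ^ 3 * σ y * (σ g' ^ 3)⁻¹ := by simp only [pow_succ, pow_zero, one_mul]; group
        _ = _ := by rw [hg3]; simp
    have e1 : σ g' * σ y * (σ g')⁻¹ = σ y₁ := by simp only [y₁, map_mul, map_inv]
    have e2 : σ g' * σ y₁ * (σ g')⁻¹ = σ y₂ := by simp only [y₂, map_mul, map_inv]
    calc σ g' * σ (y * (y₁ * y₂)) * (σ g')⁻¹
        = (σ g' * σ y * (σ g')⁻¹) * ((σ g' * σ y₁ * (σ g')⁻¹) * (σ g' * σ y₂ * (σ g')⁻¹)) := by
          rw [map_mul, map_mul]; group
      _ = σ y₁ * (σ y₂ * σ y) := by rw [e1, e2, e3]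
      _ = σ (y * (y₁ * y₂)) := by
          rw [map_mul σ y (y₁ * y₂), map_mul σ y₁ y₂, ← mul_assoc, hcomm _ (mul_mem hy1 hy2) _ hy]
  rcases (hgfix _ hmem).1 (mul_inv_eq_iff_eq_mul.1 hconj) with h | h
  · rw [CfsgLib.Schur.commutator_congr hσ.2.1 (g' := x) (h' := 1) rfl (by rw [map_one]; exact h),
      commutatorElement_one_right]
  · rw [CfsgLib.Schur.commutator_congr hσ.2.1 (g' := x) (h' := x) rfl h]
    exact commutatorElement_self x

end CfsgLib.ReeMult
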