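import Cfsg.Agent.Ree.Generate
import Cfsg.Agent.ReeMult.Torus

/-!
# The layers of the unipotent subgroup of a small Ree group
-/

set_option autoImplicit false

open scoped commutatorElement

namespace CfsgLib.ReeMult

open Cfsg.Lie CfsgLib.Chevalley CfsgLib.Ree

variable {K : Type*} [Field K] [CharP K 3] {m : ℕ}

local notation "G¹" => twistedG2 K (3 ^ m)

/-- The elements of `U` with trivial first parameter. -/
def uTwo (K : Type*) [Field K] [CharP K 3] (m : ℕ) : Subgroup ↥(twistedG2 K (3 ^ m)) where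
  carrier := {g | g ∈ uSub3 K m ∧ psi1 (g : GL chevG2.Idx K) = 0}
  one_mem' := ⟨one_mem _, by simp [psi1, rt]⟩
  mul_mem' := fun {g h} hg hh => ⟨mul_mem hg.1 hh.1, by
    refine (psi1_mul (g := (g : GL chevG2.Idx K)) (h := (h : GL chevG2.Idx K)) hg.1 hh.1).trans ?_
    rw [hg.2, hh.2, add_zero]⟩
  inv_mem' := fun {g} hg => ⟨inv_mem hg.1, by
    have e := psi1_mul (g := (g : GL chevG2.Idx K)) (h := ((g⁻¹ : ↥(twistedG2 K (3 ^ m))) : GL chevG2.Idx K))
      hg.1 (inv_mem hg.1 : g⁻¹ ∈ uSub3 K m)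
    rw [hg.2, zero_add, Subgroup.coe_inv, mul_inv_cancel] at e
    rw [Subgroup.coe_inv, ← e]
    simp [psi1, rt]⟩

/-- The central layer of `U`. -/
def uThree (K : Type*) [Field K] [CharP K 3] (m : ℕ) : Subgroup ↥(twistedG2 K (3 ^ m)) where
  carrier := {g | ∃ v, (g : GL chevG2.Idx K) = eC K m v}
  one_mem' := ⟨0, by simp [eC_val, sysG2.xG_zero]⟩
  mul_mem' := by
    rintro g h ⟨v, hv⟩ ⟨v', hv'⟩
    exact ⟨v + v', by rw [Subgroup.coe_mul, hv, hv', eC_add]⟩
  inv_mem' := by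
    rintro g ⟨v, hv⟩
    refine ⟨-v, ?_⟩
    rw [Subgroup.coe_inv, hv]
    exact inv_eq_of_mul_eq_one_right (by rw [eC_add, add_neg_cancel]; simp [eC_val, sysG2.xG_zero])

/-- The representative of the first layer. -/
noncomputable def aG (t : K) : ↥G¹ := ⟨eA K m t, eA_twisted t⟩
/-- The representative of the second layer. -/
noncomputable def bG (u : K) : ↥G¹ := ⟨eB K m u, eB_twisted u⟩
/-- The representative of the third layer. -/
noncomputable def cG (v : K) : ↥G¹ :=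
  ⟨eC K m v, by simpa [eU, eA_val, eB_val, sysG2.xG_zero] using eU_mem_twisted (m := m) (0 : K) 0 v⟩

theorem aG_mem (t : K) : aG t ∈ uSub3 K m := eA_pos t

theorem bG_mem (u : K) : bG u ∈ uTwo K m :=
  ⟨eB_pos u, by
    have h := psi1_mul (eB_pos (m := m) u) (eC_pos (m := m) (0 : K))
    rw [eBC_kP, psi1_kP] at h
    simpa [bG, eC_val, sysG2.xG_zero, psi1, rt] using h.symm⟩

theorem cG_mem (v : K) : cG v ∈ uThree K m := ⟨v, rfl⟩

theorem uThree_le : uThree K m ≤ uTwo K m := by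
  rintro g ⟨v, hv⟩
  refine ⟨show (g : GL chevG2.Idx K) ∈ chevG2.posUnipotent K by rw [hv]; exact eC_pos v, ?_⟩
  have h := psi1_mul (eB_pos (m := m) (0 : K)) (eC_pos (m := m) v)
  rw [eBC_kP, psi1_kP] at h
  rw [hv]
  simpa [eB_val, sysG2.xG_zero, psi1, rt] using h.symm

theorem uTwo_le : uTwo K m ≤ uSub3 K m := fun _ h => h.1

theorem exists_uSub3 (hq : Q K m) {g : ↥G¹} (hg : g ∈ uSub3 K m) :
    ∃ t u v, g = aG t * bG u * cG v := by
  obtain ⟨t, u, v, h⟩ := exists_eU hq hg (twistedG2_le_fixSub hq g.2)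
  exact ⟨t, u, v, Subtype.ext h⟩

theorem exists_uTwo (hq : Q K m) {g : ↥G¹} (hg : g ∈ uTwo K m) : ∃ u v, g = bG u * cG v := by
  obtain ⟨t, u, v, h⟩ := exists_eU hq hg.1 (twistedG2_le_fixSub hq g.2)
  obtain rfl : t = 0 := (eU_psi1 (m := m) t u v).symm.trans ((congrArg psi1 h).symm.trans hg.2)
  exact ⟨u, v, Subtype.ext (h.trans (by simp [eU, eA_val, sysG2.xG_zero, bG, cG]))⟩

theorem cG_central {g : ↥G¹} (hg : g ∈ uSub3 K m) (v : K) : Commute (cG v) g := by
  refine Subtype.ext ?_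
  show eC K m v * (g : GL chevG2.Idx K) = _
  rw [eC_val]
  exact (commute_x9x11 _ _ hg).eq.trans (congrArg _ (eC_val v).symm)

theorem mem_uThree (hq : Q K m) {g : ↥G¹} {a b : K}
    (h : (g : GL chevG2.Idx K) = sysG2.xG K 9 a * sysG2.xG K 11 b) : g ∈ uThree K m := by
  have hk : (g : GL chevG2.Idx K) = kP 0 a 0 b := by rw [h, kP]; simp [sysG2.xG_zero]
  obtain ⟨t, u, v, e⟩ := exists_eU hq (hk ▸ kP_mem _ _ _ _) (twistedG2_le_fixSub hq g.2)
  obtain rfl : t = 0 := by rw [← eU_psi1 (m := m) t u v, ← e, hk, psi1_kP]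
  have e' := hk.symm.trans (e.trans (by simp [eU, eA_val, sysG2.xG_zero] : _ = eB K m u * eC K m v))
  rw [eBC_kP] at e'
  obtain ⟨-, -, rfl, -⟩ := kP_inj e'
  exact ⟨v, e.trans (by simp [eU, eA_val, eB_val, sysG2.xG_zero])⟩

theorem commute_two (hq : Q K m) {g h : ↥G¹} (hg : g ∈ uTwo K m) (hh : h ∈ uTwo K m) : g * h = h * g := by
  obtain ⟨u, v, rfl⟩ := exists_uTwo hq hg
  obtain ⟨u', v', rfl⟩ := exists_uTwo hq hh
  have hb : Commute (bG u : ↥G¹) (bG u') := Subtype.ext (by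
    show eB K m u * eB K m u' = eB K m u' * eB K m u
    rw [eB_add, eB_add, add_comm])
  have c : ∀ w {x : ↥G¹}, x ∈ uTwo K m → Commute (cG w) x := fun w _ hx => cG_central hx.1 w
  exact ((hb.mul_right (c v' (bG_mem u)).symm).mul_left
    ((c v (bG_mem u')).mul_right (c v (uThree_le (cG_mem v'))))).eq

theorem commutator_ab (hq : Q K m) (t u : K) : ⁅(aG t : ↥G¹), (bG u : ↥G¹)⁆ ∈ uThree K m := by
  obtain ⟨a, b, h⟩ := eA_mul_eB (m := m) t u
  refine mem_uThree hq (a := a) (b := b) ?_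
  have hz := commute_x9x11 a b (mul_mem (eB_pos (m := m) u) (eA_pos (m := m) t))
  simp only [commutatorElement_def, Subgroup.coe_mul, Subgroup.coe_inv, aG, bG]
  rw [h, mul_assoc _ (eA K m t)⁻¹, ← mul_inv_rev, ← hz.eq, mul_inv_cancel_right]

theorem commutator_uSub3_uTwo (hq : Q K m) : ⁅uSub3 K m, uTwo K m⁆ ≤ uThree K m := by
  rw [Subgroup.commutator_le]
  intro g hg h hh
  obtain ⟨t, u, v, rfl⟩ := exists_uSub3 hq hg
  obtain ⟨u', v', rfl⟩ := exists_uTwo hq hh
  have hk : bG u * cG v ∈ uTwo K m := mul_mem (bG_mem u) (uThree_le (cG_mem v))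
  have e1 : ⁅(aG t : ↥G¹) * bG u * cG v, (bG u' : ↥G¹) * cG v'⁆ = ⁅(aG t : ↥G¹), (bG u' : ↥G¹) * cG v'⁆ := by
    rw [mul_assoc, commutatorElement_def, mul_inv_rev, ← mul_assoc,
      mul_assoc (aG t) _ (bG u' * cG v'), commute_two hq hk hh, commutatorElement_def]
    group
  have e2 : ⁅(aG t : ↥G¹), (bG u' : ↥G¹) * cG v'⁆ = ⁅(aG t : ↥G¹), (bG u' : ↥G¹)⁆ := by
    rw [commutatorElement_def, ← mul_assoc, mul_assoc _ (cG v') (aG t)⁻¹,
      (cG_central (inv_mem (aG_mem t)) v').eq, commutatorElement_def]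
    group
  rw [e1, e2]
  exact commutator_ab hq t u'

theorem commutator_uThree (hq : Q K m) : ⁅uSub3 K m, uThree K m⁆ = ⊥ := by
  rw [Subgroup.commutator_eq_bot_iff_le_centralizer]
  intro g hg
  rw [Subgroup.mem_centralizer_iff]
  rintro h ⟨v, hv⟩
  obtain rfl : h = cG v := Subtype.ext hv
  exact (cG_central hg v).eq

theorem commB_one : eq3B (wA1 ++ wB) (wB ++ wA1 ++ [(9, [(1, 1, 0)]), (11, [(1, 0, 1)])]) = true := by
  decide +kernel

theorem cG_eq_commutator (v : K) : (cG v : ↥G¹) = ⁅(aG 1 : ↥G¹), (bG v : ↥G¹)⁆ := by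
  have e := eq3_sound commB_one (th K m v) v
  rw [ew_append, ew_append, ew_append] at e
  have e1 : ew (th K m v) v wA1 = eA K m 1 := by
    simp [eA, ew_cons, ew_nil, wA1, wA, pev]
  have e2 : ew (th K m v) v [(9, [(1, 1, 0)]), (11, [(1, 0, 1)])] = eC K m v := by
    simp [ew_cons, ew_nil, pev, eC_val]
  rw [e1, e2, show ew (th K m v) v wB = eB K m v from rfl] at e
  apply Subtype.ext
  have hz := (commute_x9x11 (th K m v) v (mul_mem (eB_pos (m := m) v) (eA_pos (m := m) (1 : K)))).eq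
  rw [← eC_val] at hz
  simp only [commutatorElement_def, Subgroup.coe_mul, Subgroup.coe_inv, aG, bG, cG]
  rw [e, mul_assoc _ (eA K m 1)⁻¹, ← mul_inv_rev, ← hz, mul_inv_cancel_right]

variable [Fintype K] (hm : 1 ≤ m) (hK : Fintype.card K = 3 ^ (2 * m + 1))

include hm hK in
theorem commutator_uSub3 : ⁅uSub3 K m, uSub3 K m⁆ = uTwo K m := by
  classical
  have hq := Q_of_card hK
  refine le_antisymm ?_ fun g hg => ?_
  · rw [Subgroup.commutator_le]
    intro g hg h hh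
    have p : ∀ {x y : ↥G¹}, x ∈ uSub3 K m → y ∈ uSub3 K m →
        psi1 ((x * y : ↥G¹) : GL chevG2.Idx K) = psi1 (x : GL chevG2.Idx K) + psi1 (y : GL chevG2.Idx K) :=
      fun hx hy => psi1_mul hx hy
    refine ⟨mul_mem (mul_mem (mul_mem hg hh) (inv_mem hg)) (inv_mem hh), ?_⟩
    have i1 := p hg (inv_mem hg)
    have i2 := p hh (inv_mem hh)
    rw [mul_inv_cancel] at i1 i2
    have h1 : psi1 ((1 : ↥G¹) : GL chevG2.Idx K) = 0 := (uTwo K m).one_mem.2
    rw [h1] at i1 i2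
    rw [commutatorElement_def, p (mul_mem (mul_mem hg hh) (inv_mem hg)) (inv_mem hh),
      p (mul_mem hg hh) (inv_mem hg), p hg hh]
    linear_combination -i1 - i2
  set D := ⁅uSub3 K m, uSub3 K m⁆
  have hC : ∀ v, cG v ∈ D := fun v => by
    rw [cG_eq_commutator]
    exact Subgroup.commutator_mem_commutator (aG_mem 1) (uTwo_le (bG_mem v))
  have hbadd : ∀ x y : K, (bG (x + y) : ↥G¹) = bG x * bG y := fun x y =>
    Subtype.ext (eB_add x y).symm
  have hbneg : ∀ x : K, (bG (-x) : ↥G¹) = (bG x)⁻¹ := fun x => Subtype.ext (eB_inv x).symm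
  obtain ⟨w₀, hw0, hw1, hwn⟩ := exists_generic hm hK
  set d := fr K m w₀ - w₀ with hd
  have hd0 : d ≠ 0 := sub_ne_zero.mpr fun h =>
    ((fr_eq_self_iff hK hw0).1 h).elim hw1 hwn
  have hbd : bG d ∈ D := by
    obtain ⟨v, e⟩ := eU_commutator (m := m) hq w₀ 0 0 0 0
    have hmem : ∀ t, (⟨eU K m t 0 0, eU_mem_twisted _ _ _⟩ : ↥G¹) ∈ uSub3 K m := fun t => eU_pos t 0 0
    have h := Subgroup.commutator_mem_commutator (hmem w₀) (hmem 1)
    rw [show ⁅(⟨eU K m w₀ 0 0, eU_mem_twisted _ _ _⟩ : ↥G¹), ⟨eU K m 1 0 0, eU_mem_twisted _ _ _⟩⁆ =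
      bG d * cG v from Subtype.ext (e.trans (by simp [eU, eA_val, sysG2.xG_zero, bG, cG, hd]))] at h
    simpa using mul_mem h (inv_mem (hC v))
  have hnorm : ∀ (w : Kˣ) {x}, x ∈ D →
      (⟨hT K m w, hT_mem_twisted hK w⟩ : ↥G¹) * x * (⟨hT K m w, hT_mem_twisted hK w⟩ : ↥G¹)⁻¹ ∈ D := by
    intro w x hx
    set τ : ↥G¹ := ⟨hT K m w, hT_mem_twisted hK w⟩
    have hτ : (uSub3 K m).map (MulAut.conj τ).toMonoidHom ≤ uSub3 K m := by
      rintro _ ⟨y, hy, rfl⟩
      exact (Subgroup.mem_normalizer_iff.mp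
        (sysG2.diagonal_le_normalizer K (hT_mem_diagonal (m := m) w)) _).mp hy
    have h := Subgroup.mem_map_of_mem (MulAut.conj τ).toMonoidHom hx
    rw [Subgroup.map_commutator] at h
    exact Subgroup.commutator_mono hτ hτ h
  have hsq : ∀ y : K, IsSquare y → bG (y * d) ∈ D := by
    intro y hy
    by_cases hy0 : y = 0
    · rw [hy0, zero_mul, show (bG (0 : K) : ↥G¹) = 1 from Subtype.ext (by
        simp [bG, eB_val, sysG2.xG_zero])]
      exact one_mem _
    let f : {y : Kˣ // IsSquare y} → {y : Kˣ // IsSquare y} := fun y =>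
      ⟨(y : Kˣ) ^ 3 / Units.map (fr K m : K →* K) (y : Kˣ), (y.2.pow 3).div (y.2.map _)⟩
    have hf : Function.Injective f := by
      rintro ⟨a, ha⟩ ⟨b, hb'⟩ h
      have h' : ((a / b) ^ 3 / Units.map (fr K m : K →* K) (a / b) : Kˣ) = 1 := by
        rw [div_pow, map_div, div_div_div_comm, div_eq_one]
        exact Subtype.ext_iff.mp h
      have h'' := congrArg Units.val h'
      rw [Units.val_div_eq_div_val, Units.val_pow_eq_pow_val, Units.val_one] at h''
      refine Subtype.ext (div_eq_one.mp ?_)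
      rcases (eB_coeff_eq_one_iff hK (Units.ne_zero (a / b))).1 h'' with e | e
      · exact Units.ext e
      · exact absurd (e ▸ (ha.div hb').map (Units.coeHom K)) (not_isSquare_neg_one hK)
    obtain ⟨r, hr⟩ := hy
    have hr0 : r ≠ 0 := fun h => hy0 (by rw [hr, h, mul_zero])
    obtain ⟨⟨w, hws⟩, hw⟩ := Finite.injective_iff_surjective.mp hf
      ⟨Units.mk0 y hy0, ⟨Units.mk0 r hr0, Units.ext hr⟩⟩
    have hw' := congrArg Units.val (Subtype.ext_iff.mp hw)
    simp only [f, Units.val_div_eq_div_val, Units.val_pow_eq_pow_val, Units.val_mk0] at hw'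
    have h := hnorm w hbd
    rwa [show (⟨hT K m w, hT_mem_twisted hK w⟩ : ↥G¹) * bG d * (⟨hT K m w, hT_mem_twisted hK w⟩ : ↥G¹)⁻¹
      = bG (y * d) from Subtype.ext (by rw [← hw']; exact hT_conj_eB hq w d)] at h
  obtain ⟨u, v, rfl⟩ := exists_uTwo hq hg
  refine mul_mem ?_ (hC v)
  have h3 : (3 : K) = 0 := CharP.ofNat_eq_zero K 3
  set x := u / d
  rw [show u = (x + 1) * (x + 1) * d + -((x - 1) * (x - 1) * d) by
    linear_combination -(u / d * d) * h3 - (mul_div_cancel₀ u hd0), hbadd, hbneg]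
  exact mul_mem (hsq _ ⟨_, rfl⟩) (inv_mem (hsq _ ⟨_, rfl⟩))

include hm hK in
/-- The torus, parametrised by its weight on the first layer, and the three layers. -/
theorem exists_layers : ∃ T : Kˣ →* ↥G¹,
    (∀ t, ∀ x ∈ uTwo K m, T t * x * (T t)⁻¹ ∈ uTwo K m) ∧
      Nonempty (Layer (uSub3 K m) (uTwo K m) T id) ∧
      Nonempty (Layer (uTwo K m) (uThree K m) T fun x => fr K m x * x) ∧
      Nonempty (Layer (uThree K m) ⊥ T fun x => fr K m x * x * x) := by
  classical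
  have hq := Q_of_card hK
  let χ₁ : Kˣ →* Kˣ :=
    { toFun := fun w => Units.map (fr K m : K →* K) w ^ 2 / w ^ 3
      map_one' := by simp
      map_mul' := fun a b => by rw [map_mul, mul_pow, mul_pow, mul_div_mul_comm] }
  have hχ : ∀ w, ((χ₁ w : Kˣ) : K) = fr K m w ^ 2 / (w : K) ^ 3 := fun w => by
    simp [χ₁, Units.val_div_eq_div_val]
  have hinj : Function.Injective χ₁ := by
    rw [injective_iff_map_eq_one]
    intro w h
    refine Units.ext ((eA_coeff_eq_one_iff hK w.ne_zero).1 ?_)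
    rw [← hχ, h, Units.val_one]
  let χe : Kˣ ≃* Kˣ := MulEquiv.ofBijective χ₁ (Finite.injective_iff_bijective.1 hinj)
  let τ : Kˣ →* ↥G¹ :=
    { toFun := fun w => ⟨hT K m w, hT_mem_twisted hK w⟩
      map_one' := Subtype.ext (map_one _)
      map_mul' := fun a b => Subtype.ext (map_mul _ a b) }
  let T : Kˣ →* ↥G¹ := τ.comp χe.symm.toMonoidHom
  have hval : ∀ t : Kˣ, (t : K) = fr K m (χe.symm t : Kˣ) ^ 2 / ((χe.symm t : Kˣ) : K) ^ 3 := fun t => by
    rw [← hχ]; exact congrArg Units.val (χe.apply_symm_apply t).symm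
  have h2 : ∀ t : Kˣ, fr K m (t : K) * t =
      ((χe.symm t : Kˣ) : K) ^ 3 / fr K m ((χe.symm t : Kˣ) : K) := fun t => by
    have hw : ((χe.symm t : Kˣ) : K) ≠ 0 := Units.ne_zero _
    have hf : fr K m ((χe.symm t : Kˣ) : K) ≠ 0 := (map_ne_zero _).2 hw
    rw [hval t, map_div₀, map_pow, map_pow, fr_fr hq]
    field_simp
  have h3 : ∀ t : Kˣ, fr K m (t : K) * t * t = fr K m ((χe.symm t : Kˣ) : K) := fun t => by
    have hw : ((χe.symm t : Kˣ) : K) ≠ 0 := Units.ne_zero _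
    have hf : fr K m ((χe.symm t : Kˣ) : K) ≠ 0 := (map_ne_zero _).2 hw
    rw [hval t, map_div₀, map_pow, map_pow, fr_fr hq]
    field_simp
  have hU : ∀ t, ∀ x ∈ uSub3 K m, T t * x * (T t)⁻¹ ∈ uSub3 K m := fun t x hx =>
    (Subgroup.mem_normalizer_iff.mp
      (sysG2.diagonal_le_normalizer K (hT_mem_diagonal (m := m) (χe.symm t))) _).mp hx
  refine ⟨T, fun t x hx => ?_, ⟨⟨aG, aG_mem, fun x hx => ?_, fun a b => ?_, fun t a => ?_⟩⟩,
    ⟨⟨bG, bG_mem, fun x hx => ?_, fun a b => ?_, fun t a => ?_⟩⟩,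
    ⟨⟨cG, cG_mem, fun x hx => ?_, fun a b => ?_, fun t a => ?_⟩⟩⟩
  · rw [← commutator_uSub3 hm hK] at hx ⊢
    have h := Subgroup.mem_map_of_mem (MulAut.conj (T t)).toMonoidHom hx
    rw [Subgroup.map_commutator] at h
    have hle : (uSub3 K m).map (MulAut.conj (T t)).toMonoidHom ≤ uSub3 K m := by
      rintro _ ⟨y, hy, rfl⟩
      exact hU t y hy
    exact Subgroup.commutator_mono hle hle h
  · obtain ⟨t, u, v, rfl⟩ := exists_uSub3 hq hx
    exact ⟨t, by rw [mul_assoc, inv_mul_cancel_left]; exact mul_mem (bG_mem u) (uThree_le (cG_mem v))⟩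
  · obtain ⟨s, u, v, e⟩ := exists_uSub3 hq (mul_mem (aG_mem a) (aG_mem b) : (aG a : ↥G¹) * aG b ∈ uSub3 K m)
    obtain rfl : a + b = s := by
      have h := congrArg (fun g : ↥G¹ => psi1 (g : GL chevG2.Idx K)) e
      simp only [Subgroup.coe_mul, aG, bG, cG] at h
      rwa [psi1_mul (eA_pos a) (eA_pos b), eA_psi1, eA_psi1,
        show eA K m s * eB K m u * eC K m v = eU K m s u v from rfl, eU_psi1] at h
    rw [e, mul_assoc, inv_mul_cancel_left]
    exact mul_mem (bG_mem u) (uThree_le (cG_mem v))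
  · obtain ⟨u, v, e⟩ := hT_conj_eA (m := m) hq (χe.symm t) a
    rw [show T t * aG a * (T t)⁻¹ = aG (id (t : K) * a) * bG u * cG v from Subtype.ext
      (e.trans (by rw [← hval t]; rfl)), mul_assoc, inv_mul_cancel_left]
    exact mul_mem (bG_mem u) (uThree_le (cG_mem v))
  · obtain ⟨u, v, rfl⟩ := exists_uTwo hq hx
    exact ⟨u, by rw [inv_mul_cancel_left]; exact cG_mem v⟩
  · rw [show (bG a : ↥G¹) * bG b = bG (a + b) from Subtype.ext (eB_add a b), inv_mul_cancel]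
    exact one_mem _
  · rw [show T t * bG a * (T t)⁻¹ = bG (fr K m (t : K) * t * a) from Subtype.ext
      (by rw [h2 t]; exact hT_conj_eB hq (χe.symm t) a), inv_mul_cancel]
    exact one_mem _
  · obtain ⟨v, hv⟩ := hx
    exact ⟨v, by rw [show x = cG v from Subtype.ext hv, inv_mul_cancel]; exact one_mem _⟩
  · rw [show (cG a : ↥G¹) * cG b = cG (a + b) from Subtype.ext (eC_add a b), inv_mul_cancel]
    exact one_mem _
  · rw [show T t * cG a * (T t)⁻¹ = cG (fr K m (t : K) * t * t * a) from Subtype.ext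
      (by rw [h3 t]; exact hT_conj_eC hq (χe.symm t) a), inv_mul_cancel]
    exact one_mem _

end CfsgLib.ReeMult
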